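import Cfsg.Agent.FourTransOdd.CaseTwo

/-!
The case in which involutions fix three points.
-/

set_option autoImplicit false

namespace CfsgLib.FourTransOdd

theorem exists_not_mem {α : Type*} [Finite α] (s : Finset α) (h : s.card < Nat.card α) :
    ∃ e : α, e ∉ s := by
  classical
  have := Fintype.ofFinite α
  obtain ⟨e, -, he⟩ := Finset.exists_mem_notMem_of_card_lt_card
    (s := s) (t := (Finset.univ : Finset α)) (by rwa [Finset.card_univ, ← Nat.card_eq_fintype_card])
  exact ⟨e, he⟩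

variable {G α : Type*} [Group G] [MulAction G α]

theorem double_sq {t g : G} (h : t * t = 1) : g * t * g⁻¹ * (g * t * g⁻¹) = 1 := by
  calc g * t * g⁻¹ * (g * t * g⁻¹) = g * (t * t) * g⁻¹ := by group
    _ = 1 := by rw [h]; group

/-- An involution fixing two points and exchanging two others. -/
def IsSwap (u : G) (a b c d : α) : Prop :=
  u * u = 1 ∧ u • a = a ∧ u • b = b ∧ u • c = d ∧ u • d = c

theorem IsSwap.ne_one {u : G} {a b c d : α} (h : IsSwap u a b c d) (hd : Dist a b c d) : u ≠ 1 :=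
  ne_one_of_moves (p := c) (by rw [h.2.2.2.1]; exact hd.cd.symm)

/-- Every such involution has a third fixed point. -/
def ThreeFix (G α : Type*) [Group G] [MulAction G α] : Prop :=
  ∀ {a b c d : α}, Dist a b c d → ∀ {u : G}, IsSwap u a b c d → ∃ x, x ≠ a ∧ x ≠ b ∧ u • x = x

namespace Hyp

variable [Finite α] (H : Hyp G α) (h8 : 8 ≤ Nat.card α)

include H h8

/-- Either no involution fixes three points or every involution fixing two does. -/
theorem threeFix_of_not_twoFix (hT : ¬ TwoFix G α) : ThreeFix G α := by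
  classical
  intro a b c d hd u hu
  by_contra hno
  push Not at hno
  apply hT
  intro t ht ht1 p q r pq pr qr tp tq tr
  obtain ⟨m, hm⟩ : ∃ m : α, t • m ≠ m := by
    by_contra h
    push Not at h
    exact ht1 (H.faithful t h)
  obtain ⟨e, he⟩ := exists_not_mem ({m, t • m, p, q, r} : Finset α)
    (lt_of_le_of_lt Finset.card_le_five (by omega))
  simp only [Finset.mem_insert, Finset.mem_singleton, not_or] at he
  obtain ⟨em, etm, ep, eq, er⟩ := he
  have he1 : t • e ≠ e := fun h =>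
    H.not_fix_four ht ht1 ⟨pq, pr, Ne.symm ep, qr, Ne.symm eq, Ne.symm er⟩ tp tq tr h
  have hd1 : Dist m (t • m) e (t • e) := by
    refine ⟨hm.symm, Ne.symm em, fun h => etm ?_, Ne.symm etm, fun h => em (eq_of_smul_eq h.symm), he1.symm⟩
    rw [h, smul_smul_self ht]
  obtain ⟨y, hy⟩ := exists_not_mem ({a, b, c, d} : Finset α)
    (lt_of_le_of_lt Finset.card_le_four (by omega))
  simp only [Finset.mem_insert, Finset.mem_singleton, not_or] at hy
  obtain ⟨ya, yb, yc, yd⟩ := hy
  obtain ⟨hu2, ua, ub, uc, ud⟩ := hu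
  have hd2 : Dist c d y (u • y) := by
    refine ⟨hd.cd, Ne.symm yc, fun h => yd ?_, Ne.symm yd, fun h => yc ?_, (hno y ya yb).symm⟩
    · exact eq_of_smul_eq (g := u) (by rw [ud, ← h])
    · exact eq_of_smul_eq (g := u) (by rw [uc, ← h])
  obtain ⟨g, g1, g2, g3, g4⟩ := H.trans hd1 hd2
  obtain ⟨g₀, hg₀, -⟩ := H.exists_transfer hd1 ht hu2 (g := g) (by rw [g2, g1, ud])
    (by rw [smul_smul_self ht, g1, g2, uc]) (by rw [g4, g3, smul_smul_self hu2])
    (by rw [smul_smul_self ht, g3, g4])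
  have two : ∀ s, t • s = s → g₀ • s = a ∨ g₀ • s = b := fun s hs => by
    by_contra h
    push Not at h
    exact hno _ h.1 h.2 (smul_fix_of_conj hg₀ hs)
  rcases two p tp with hp | hp <;> rcases two q tq with hq | hq <;> rcases two r tr with hr | hr
  all_goals first
    | exact pq (eq_of_smul_eq (hp.trans hq.symm))
    | exact pr (eq_of_smul_eq (hp.trans hr.symm))
    | exact qr (eq_of_smul_eq (hq.trans hr.symm))

omit h8 [Finite α] in
/-- An involution has at most three fixed points. -/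
theorem fix_cases {t : G} (ht : t * t = 1) (ht1 : t ≠ 1) {p q r y : α} (pq : p ≠ q) (pr : p ≠ r)
    (qr : q ≠ r) (tp : t • p = p) (tq : t • q = q) (tr : t • r = r) (ty : t • y = y) :
    y = p ∨ y = q ∨ y = r := by
  by_contra h
  push Not at h
  exact H.not_fix_four ht ht1 ⟨pq, pr, h.1.symm, qr, h.2.1.symm, h.2.2.symm⟩ tp tq tr ty

/-- A double transposition commuting with an involution with two given fixed points, and their
fixed points. -/
theorem exists_config {a b c d : α} (hd : Dist a b c d) {u : G} (hu : IsSwap u a b c d) {x : α}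
    (xa : x ≠ a) (xb : x ≠ b) (ux : u • x = x) :
    ∃ (z : G) (p : α), z * z = 1 ∧ z • a = b ∧ z • b = a ∧ z • c = d ∧ z • d = c ∧ Commute z u ∧
      z • x = x ∧ z • p = p ∧ p ≠ a ∧ p ≠ b ∧ p ≠ c ∧ p ≠ d ∧ p ≠ x ∧ u • p ≠ p := by
  have hu1 := hu.ne_one hd
  obtain ⟨hu2, ua, ub, uc, ud⟩ := hu
  obtain ⟨g, ga, gb, gc, gd⟩ := H.trans hd
    (⟨hd.ab.symm, hd.bd, hd.bc, hd.ad, hd.ac, hd.cd.symm⟩ : Dist b a d c)
  have ok : ∀ p, (p = a ∨ p = b ∨ p = c ∨ p = d) → Ok u g p := by
    rintro p (rfl | rfl | rfl | rfl) <;>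
      refine ⟨?_, ?_, ?_⟩ <;> simp only [ua, ub, uc, ud, ga, gb, gc, gd]
  obtain ⟨z, hz, hzu, hzag⟩ := H.exists_commuting hd hu2 (ok a (by tauto)) (ok b (by tauto))
    (ok c (by tauto)) (ok d (by tauto))
  have za : z • a = b := (hzag a (ok a (by tauto))).trans ga
  have zb : z • b = a := (hzag b (ok b (by tauto))).trans gb
  have zc : z • c = d := (hzag c (ok c (by tauto))).trans gc
  have zd : z • d = c := (hzag d (ok d (by tauto))).trans gd
  have zx : z • x = x := by
    rcases H.fix_cases hu2 hu1 hd.ab xa.symm xb.symm ua ub ux (smul_fix_of_commute hzu ux) with h | h | h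
    · exact absurd (eq_of_smul_eq (h.trans zb.symm)) xb
    · exact absurd (eq_of_smul_eq (h.trans za.symm)) xa
    · exact h
  -- the number of fixed points of `z` is that of `u`
  obtain ⟨y, hy⟩ := by
    classical
    exact exists_not_mem ({a, b, c, d, x} : Finset α) (lt_of_le_of_lt Finset.card_le_five (by omega))
  simp only [Finset.mem_insert, Finset.mem_singleton, not_or] at hy
  obtain ⟨ya, yb, yc, yd, yx⟩ := hy
  have uy : u • y ≠ y := fun h => by
    rcases H.fix_cases hu2 hu1 hd.ab xa.symm xb.symm ua ub ux h with h | h | h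
    · exact ya h
    · exact yb h
    · exact yx h
  have hd2 : Dist c d y (u • y) := by
    refine ⟨hd.cd, Ne.symm yc, fun h => yd ?_, Ne.symm yd, fun h => yc ?_, uy.symm⟩
    · exact eq_of_smul_eq (g := u) (by rw [ud, ← h])
    · exact eq_of_smul_eq (g := u) (by rw [uc, ← h])
  obtain ⟨g1, h1, h2, h3, h4⟩ := H.trans hd2 hd
  obtain ⟨g₀, hg₀, -⟩ := H.exists_transfer hd2 hu2 hz (g := g1) (by rw [uc, h2, h1, zb])
    (by rw [ud, h1, h2, za]) (by rw [h4, h3, zd]) (by rw [smul_smul_self hu2, h3, h4, zc])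
  obtain ⟨p, zp, px⟩ : ∃ p, z • p = p ∧ p ≠ x := by
    by_cases h : g₀ • a = x
    · exact ⟨g₀ • b, smul_fix_of_conj hg₀ ub, fun h' => hd.ab (eq_of_smul_eq (h.trans h'.symm))⟩
    · exact ⟨g₀ • a, smul_fix_of_conj hg₀ ua, h⟩
  have pa : p ≠ a := fun h => hd.ab (by rw [← za, ← h, zp, h])
  have pb : p ≠ b := fun h => hd.ab (by rw [← zb, ← h, zp, h])
  have pc : p ≠ c := fun h => hd.cd (by rw [← zc, ← h, zp, h])
  have pd : p ≠ d := fun h => hd.cd (by rw [← zd, ← h, zp, h])
  refine ⟨z, p, hz, za, zb, zc, zd, hzu.symm, zx, zp, pa, pb, pc, pd, px, fun h => ?_⟩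
  rcases H.fix_cases hu2 hu1 hd.ab xa.symm xb.symm ua ub ux h with h | h | h
  · exact pa h
  · exact pb h
  · exact px h

variable (F : ThreeFix G α)

include F

/-- If a four-point stabiliser moves the third fixed point then it is transitive off the four points. -/
theorem exists_map_fixed {a b c d : α} (hd : Dist a b c d) {u : G} (hu : IsSwap u a b c d) {x : α}
    (xa : x ≠ a) (xb : x ≠ b) (ux : u • x = x) {h : G} (hh : h ∈ Q4 G a b c d) (hx : h • x ≠ x)
    {y : α} (ya : y ≠ a) (yb : y ≠ b) (yc : y ≠ c) (yd : y ≠ d) :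
    ∃ g ∈ Q4 G a b c d, g • x = y := by
  obtain ⟨z, p, hz, za, zb, zc, zd, hzu, zx, zp, pa, pb, pc, pd, px, up⟩ :=
    H.exists_config h8 hd hu xa xb ux
  have hu1 := hu.ne_one hd
  obtain ⟨hu2, ua, ub, uc, ud⟩ := hu
  have hz1 : z ≠ 1 := ne_one_of_moves (p := a) (by rw [za]; exact hd.ab.symm)
  have xc : x ≠ c := fun h => hd.cd (by rw [← uc, ← h, ux, h])
  have xd : x ≠ d := fun h => hd.cd (by rw [← ud, ← h, ux, h])
  set v := z * u with hv
  have va : v • a = b := by rw [hv, mul_smul, ua, za]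
  have vb : v • b = a := by rw [hv, mul_smul, ub, zb]
  have vc : v • c = c := by rw [hv, mul_smul, uc, zd]
  have vd : v • d = d := by rw [hv, mul_smul, ud, zc]
  have vx : v • x = x := by rw [hv, mul_smul, ux, zx]
  have hv2 : v * v = 1 := by
    rw [hv, mul_assoc, ← mul_assoc u z, ← hzu.eq, mul_assoc z u u, hu2, mul_one, hz]
  have hv1 : v ≠ 1 := ne_one_of_moves (p := a) (by rw [va]; exact hd.ab.symm)
  set q := u • p with hq
  have zq : z • q = q := smul_fix_of_commute hzu zp
  have qx : q ≠ x := fun e => px (eq_of_smul_eq (e.trans ux.symm))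
  have fixz : ∀ s, z • s = s → s = x ∨ s = p ∨ s = q := fun s hs =>
    H.fix_cases hz hz1 px.symm qx.symm up.symm zx zp zq hs
  have fixu : ∀ s, u • s = s → s = a ∨ s = b ∨ s = x := fun s hs =>
    H.fix_cases hu2 hu1 hd.ab xa.symm xb.symm ua ub ux hs
  -- an element centralising `z` and moving `x`
  obtain ⟨k, hk, hck, hkx⟩ : ∃ k ∈ Q4 G a b c d, Commute z k ∧ k • x ≠ x := by
    by_contra hno
    push Not at hno
    have norm : ∀ {w : G}, w * w = 1 → ∀ {r s : α}, w • r = s → ∀ {g : G}, g • s = s →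
        (w * g * w) • r = r := fun {w} hw {r s} hrs {g} hg => by
      rw [mul_smul, mul_smul, hrs, hg, ← hrs, smul_smul_self hw]
    refine hx (MulAction.mem_stabilizer_iff.mp ((le_of_four_group (H := Q4 G a b c d)
      (fun g hg => H.odd hd g hg) hz hu2 hzu ?_ ?_ ?_ ?_ ?_) hh))
    · intro g hg
      obtain ⟨a', b', c', d'⟩ := mem_Q4.mp hg
      exact mem_Q4.mpr ⟨norm hz za b', norm hz zb a', norm hz zc d', norm hz zd c'⟩
    · intro g hg
      obtain ⟨a', b', c', d'⟩ := mem_Q4.mp hg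
      exact mem_Q4.mpr ⟨norm hu2 ua a', norm hu2 ub b', norm hu2 uc d', norm hu2 ud c'⟩
    · exact fun g hg hc => MulAction.mem_stabilizer_iff.mpr (hno g hg hc)
    · intro g hg hc
      obtain ⟨a', b', -, -⟩ := mem_Q4.mp hg
      rw [MulAction.mem_stabilizer_iff]
      rcases fixu _ (smul_fix_of_commute hc ux) with e | e | e
      · exact absurd (eq_of_smul_eq (e.trans a'.symm)) xa
      · exact absurd (eq_of_smul_eq (e.trans b'.symm)) xb
      · exact e
    · intro g hg hc
      obtain ⟨-, -, c', d'⟩ := mem_Q4.mp hg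
      rw [MulAction.mem_stabilizer_iff]
      rcases H.fix_cases hv2 hv1 hd.cd xc.symm xd.symm vc vd vx (smul_fix_of_commute hc vx) with e | e | e
      · exact absurd (eq_of_smul_eq (e.trans c'.symm)) xc
      · exact absurd (eq_of_smul_eq (e.trans d'.symm)) xd
      · exact e
  obtain ⟨ka, kb, kc, kd⟩ := mem_Q4.mp hk
  have kodd := H.odd hd k hk
  have kmove : ∀ s : α, z • s = s → k • s ≠ s := by
    intro s hs e
    have h1 : z • k • x = k • x := smul_fix_of_commute hck zx
    have h2 : z • k • k • x = k • k • x := smul_fix_of_commute hck h1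
    have h3 : k • k • x ≠ x := fun e' => hkx (fix_of_swap kodd e')
    have h4 : k • k • x ≠ k • x := fun e' => hkx (eq_of_smul_eq e')
    rcases H.fix_cases hz hz1 (Ne.symm hkx) h3.symm h4.symm zx h1 h2 hs with rfl | rfl | rfl
    · exact hkx e
    · exact hkx (eq_of_smul_eq e)
    · exact hkx (eq_of_smul_eq (eq_of_smul_eq e))
  -- both other fixed points of `z` are images of `x`
  have orb : (∃ m ∈ Q4 G a b c d, m • x = p) ∧ (∃ m ∈ Q4 G a b c d, m • x = q) := by
    have h1 := fixz _ (smul_fix_of_commute hck zx)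
    have h2 := fixz _ (smul_fix_of_commute hck (smul_fix_of_commute hck zx))
    have h3 : k • k • x ≠ x := fun e' => hkx (fix_of_swap kodd e')
    have h4 : k • k • x ≠ k • x := fun e' => hkx (eq_of_smul_eq e')
    rcases h1 with e1 | e1 | e1
    · exact absurd e1 hkx
    · refine ⟨⟨k, hk, e1⟩, k * k, mul_mem hk hk, ?_⟩
      rw [mul_smul]
      rcases h2 with e2 | e2 | e2
      · exact absurd e2 h3
      · exact absurd (e2.trans e1.symm) h4
      · exact e2
    · refine ⟨⟨k * k, mul_mem hk hk, ?_⟩, k, hk, e1⟩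
      rw [mul_smul]
      rcases h2 with e2 | e2 | e2
      · exact absurd e2 h3
      · exact e2
      · exact absurd (e2.trans e1.symm) h4
  by_cases hyx : y = x
  · exact ⟨1, one_mem _, by rw [one_smul, hyx]⟩
  -- the other cycles of `u`
  have cyc : ∀ {e : α}, e ≠ c → e ≠ d → u • e ≠ e → Dist c d e (u • e) := fun {e} ec ed em => by
    refine ⟨hd.cd, ec.symm, fun h => ed ?_, ed.symm, fun h => ec ?_, em.symm⟩
    · exact eq_of_smul_eq (g := u) (by rw [ud, ← h])
    · exact eq_of_smul_eq (g := u) (by rw [uc, ← h])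
  have hpq : Dist c d p q := cyc pc pd up
  have uy : u • y ≠ y := fun e => by
    rcases fixu y e with e | e | e
    · exact ya e
    · exact yb e
    · exact hyx e
  -- transfer `k` to the centralizer of `u`
  obtain ⟨g1, g1a, g1b, g1c, g1d⟩ := H.trans hd hpq
  obtain ⟨g2, hg2, hag2⟩ := H.exists_transfer hd hz hu2 (g := g1) (by rw [za, g1b, g1a, ud])
    (by rw [zb, g1a, g1b, uc]) (by rw [zc, g1d, g1c, hq, smul_smul_self hu2])
    (by rw [zd, g1c, g1d])
  set k' := g2 * k * g2⁻¹ with hk'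
  have k'fix : ∀ {r : α}, r ∈ ({a, b, c, d} : Set α) → k • r = r → k' • g2 • r = g2 • r :=
    fun {r} _ hr => smul_fix_of_conj rfl hr
  have g2a : g2 • a = c := (hag2 a (by rw [za, g1b, g1a, ud])).trans g1a
  have g2b : g2 • b = d := (hag2 b (by rw [zb, g1a, g1b, uc])).trans g1b
  have g2c : g2 • c = p := (hag2 c (by rw [zc, g1d, g1c, hq, smul_smul_self hu2])).trans g1c
  have g2d : g2 • d = q := (hag2 d (by rw [zd, g1c, g1d])).trans g1d
  have k'c : k' • c = c := g2a ▸ k'fix (by simp) ka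
  have k'd : k' • d = d := g2b ▸ k'fix (by simp) kb
  have k'p : k' • p = p := g2c ▸ k'fix (by simp) kc
  have k'u : Commute u k' := by
    show u * k' = k' * u
    rw [← hg2, hk']
    calc g2 * z * g2⁻¹ * (g2 * k * g2⁻¹) = g2 * (z * k) * g2⁻¹ := by group
      _ = g2 * (k * z) * g2⁻¹ := by rw [hck.eq]
      _ = g2 * k * g2⁻¹ * (g2 * z * g2⁻¹) := by group
  have k'move : ∀ s : α, u • s = s → k' • s ≠ s := by
    intro s hs e
    refine kmove (g2⁻¹ • s) (fix_inv_of_conj hg2 hs) (eq_of_smul_eq (g := g2) ?_)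
    rw [smul_inv_smul]
    rwa [hk', mul_smul, mul_smul] at e
  obtain ⟨g3, g3c, g3d, g3p, g3q⟩ := H.trans hpq (cyc yc yd uy)
  obtain ⟨g4, hg4, hag4⟩ := H.exists_transfer hpq hu2 hu2 (g := g3)
    (by rw [uc, g3d, g3c, ud]) (by rw [ud, g3c, g3d, uc])
    (by rw [← hq, g3q, g3p, smul_smul_self hu2])
    (by rw [hq, smul_smul_self hu2, ← hq, g3p, g3q])
  have g4c : g4 • c = c := (hag4 c (by rw [uc, g3d, g3c, ud])).trans g3c
  have g4d : g4 • d = d := (hag4 d (by rw [ud, g3c, g3d, uc])).trans g3d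
  have g4p : g4 • p = y := (hag4 p (by rw [← hq, g3q, g3p, smul_smul_self hu2])).trans g3p
  have g4u : Commute u g4 := by
    show u * g4 = g4 * u
    conv_lhs => rw [← hg4]
    group
  -- adjust `g4` by a power of `k'` so that it fixes `x`
  obtain ⟨g5, g5u, g5c, g5d, g5p, g5x⟩ : ∃ g5 : G, Commute u g5 ∧ g5 • c = c ∧ g5 • d = d ∧
      g5 • p = y ∧ g5 • x = x := by
    have f0 : u • g4⁻¹ • x = g4⁻¹ • x := fix_inv_of_conj hg4 ux
    have f1 : u • k' • x = k' • x := smul_fix_of_commute k'u ux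
    have f2 : u • k' • k' • x = k' • k' • x := smul_fix_of_commute k'u f1
    have k'odd : Odd (orderOf k') := by
      have e : orderOf k' = orderOf k := (MulAut.conj g2).orderOf_eq k
      rw [e]
      exact kodd
    have n1 : k' • x ≠ x := k'move x ux
    have n2 : k' • k' • x ≠ x := fun e => n1 (fix_of_swap k'odd e)
    have n3 : k' • k' • x ≠ k' • x := fun e => n1 (eq_of_smul_eq e)
    rcases H.fix_cases hu2 hu1 n1.symm n2.symm n3.symm ux f1 f2 f0 with e | e | e
    · exact ⟨g4, g4u, g4c, g4d, g4p, (inv_smul_eq_iff.mp e).symm⟩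
    · exact ⟨g4 * k', g4u.mul_right k'u, by rw [mul_smul, k'c, g4c], by rw [mul_smul, k'd, g4d],
        by rw [mul_smul, k'p, g4p], by rw [mul_smul, ← e, smul_inv_smul]⟩
    · exact ⟨g4 * (k' * k'), g4u.mul_right (k'u.mul_right k'u),
        by rw [mul_smul, mul_smul, k'c, k'c, g4c], by rw [mul_smul, mul_smul, k'd, k'd, g4d],
        by rw [mul_smul, mul_smul, k'p, k'p, g4p], by rw [mul_smul, mul_smul, ← e, smul_inv_smul]⟩
  have five : ∀ {r : α}, u • r = r → r ≠ x → g5 • r = a ∨ g5 • r = b := fun {r} hr hrx => by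
    rcases fixu _ (smul_fix_of_commute g5u hr) with e | e | e
    · exact Or.inl e
    · exact Or.inr e
    · exact absurd (eq_of_smul_eq (e.trans g5x.symm)) hrx
  rcases five ua xa.symm with ha | ha
  · obtain ⟨m, hm, hmx⟩ := orb.1
    refine ⟨g5 * m, mul_mem (mem_Q4.mpr ⟨ha, ?_, g5c, g5d⟩) hm, by rw [mul_smul, hmx, g5p]⟩
    rcases five ub xb.symm with hb | hb
    · exact absurd (eq_of_smul_eq (hb.trans ha.symm)) hd.ab.symm
    · exact hb
  · obtain ⟨m, hm, hmx⟩ := orb.2
    refine ⟨g5 * v * m, mul_mem (mem_Q4.mpr ⟨?_, by rw [mul_smul, vb, ha],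
      by rw [mul_smul, vc, g5c], by rw [mul_smul, vd, g5d]⟩) hm, ?_⟩
    · rcases five ub xb.symm with hb | hb
      · rw [mul_smul, va, hb]
      · exact absurd (eq_of_smul_eq (hb.trans ha.symm)) hd.ab.symm
    · rw [mul_smul, mul_smul, hmx, hv, mul_smul, hq, smul_smul_self hu2, zp, g5p]

end Hyp

end CfsgLib.FourTransOdd
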