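import Cfsg.Agent.FourTransOdd.Config

/-!
The case in which no involution fixes three points: the four-point stabilisers are trivial.
-/

set_option autoImplicit false

namespace CfsgLib.FourTransOdd

/-- No involution fixes three points. -/
def TwoFix (G α : Type*) [Group G] [MulAction G α] : Prop :=
  ∀ t : G, t * t = 1 → t ≠ 1 → ∀ {p q r : α}, p ≠ q → p ≠ r → q ≠ r →
    t • p = p → t • q = q → t • r = r → False

variable {G α : Type*} [Group G] [MulAction G α]

theorem ne_one_of_moves {t : G} {p : α} (h : t • p ≠ p) : t ≠ 1 := fun e => h (by rw [e, one_smul])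

theorem exists_fifth [Finite α] (h5 : 5 ≤ Nat.card α) (a b c d : α) :
    ∃ e : α, e ≠ a ∧ e ≠ b ∧ e ≠ c ∧ e ≠ d := by
  classical
  have := Fintype.ofFinite α
  have hc : ({a, b, c, d} : Finset α).card < (Finset.univ : Finset α).card := by
    rw [Finset.card_univ, ← Nat.card_eq_fintype_card]
    exact lt_of_le_of_lt Finset.card_le_four h5
  obtain ⟨e, -, he⟩ := Finset.exists_mem_notMem_of_card_lt_card hc
  simp only [Finset.mem_insert, Finset.mem_singleton, not_or] at he
  exact ⟨e, he.1, he.2.1, he.2.2.1, he.2.2.2⟩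

/-- Conjugating the fixed points. -/
theorem smul_fix_of_conj {t t' g : G} (h : g * t * g⁻¹ = t') {p : α} (hp : t • p = p) :
    t' • g • p = g • p := by
  rw [← h, mul_smul, mul_smul, inv_smul_smul, hp]

theorem fix_inv_of_conj {t t' g : G} (h : g * t * g⁻¹ = t') {p : α} (hp : t' • p = p) :
    t • g⁻¹ • p = g⁻¹ • p :=
  smul_fix_of_conj (show g⁻¹ * t' * g⁻¹⁻¹ = t by rw [← h]; group) hp

namespace Hyp

variable [Finite α] (H : Hyp G α) (T : TwoFix G α) (h5 : 5 ≤ Nat.card α)

include H T h5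

/-- Every point outside a quadruple is fixed by some double transposition on the quadruple. -/
theorem exists_double_fixing {a b c d e : α} (hd : Dist a b c d) (ea : e ≠ a) (eb : e ≠ b)
    (ec : e ≠ c) (ed : e ≠ d) :
    ∃ z : G, z * z = 1 ∧ z • a = b ∧ z • b = a ∧ z • c = d ∧ z • d = c ∧ z • e = e := by
  obtain ⟨z₀, hz₀, za, zb, zc, zd⟩ := H.exists_double hd
  obtain ⟨g, ga, gb, gc, gd⟩ := H.trans hd
    (⟨hd.ab, hd.ad, hd.ac, hd.bd, hd.bc, hd.cd.symm⟩ : Dist a b d c)
  have ok : ∀ p, (p = a ∨ p = b ∨ p = c ∨ p = d) → Ok z₀ g p := by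
    rintro p (rfl | rfl | rfl | rfl) <;>
      refine ⟨?_, ?_, ?_⟩ <;> simp only [za, zb, zc, zd, ga, gb, gc, gd]
  obtain ⟨u, hu, hzu, huag⟩ := H.exists_commuting hd hz₀ (ok a (Or.inl rfl)) (ok b (by tauto))
    (ok c (by tauto)) (ok d (by tauto))
  have ua : u • a = a := (huag a (ok a (by tauto))).trans ga
  have ub : u • b = b := (huag b (ok b (by tauto))).trans gb
  have uc : u • c = d := (huag c (ok c (by tauto))).trans gc
  have ud : u • d = c := (huag d (ok d (by tauto))).trans gd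
  have hu1 : u ≠ 1 := ne_one_of_moves (p := c) (by rw [uc]; exact hd.cd.symm)
  have moved : ∀ p, p ≠ a → p ≠ b → u • p ≠ p := fun p pa pb h =>
    T u hu hu1 hd.ab pa.symm pb.symm ua ub h
  -- a second cycle of `u` gives a fixed point of `z₀`
  have he' : Dist c d e (u • e) := by
    refine ⟨hd.cd, ec.symm, fun h => ?_, ed.symm, fun h => ?_, fun h => moved e ea eb h.symm⟩
    · exact ed (eq_of_smul_eq (g := u) (by rw [ud, ← h]))
    · exact ec (eq_of_smul_eq (g := u) (by rw [uc, ← h]))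
  obtain ⟨g1, g1a, g1b, g1c, g1d⟩ := H.trans hd he'
  obtain ⟨g2, hg2, -⟩ := H.exists_transfer hd hz₀ hu (g := g1)
    (by rw [za, g1b, ud, g1a]) (by rw [zb, g1a, uc, g1b])
    (by rw [zc, g1d, smul_smul_self hu, g1c]) (by rw [zd, g1c, g1d])
  set p := g2⁻¹ • a
  have zp : z₀ • p = p := fix_inv_of_conj hg2 ua
  have pa : p ≠ a := fun h => hd.ab (by rw [← za, ← h, zp, h])
  have pb : p ≠ b := fun h => hd.ab (by rw [← zb, ← h, zp, h])
  have pc : p ≠ c := fun h => hd.cd (by rw [← zc, ← h, zp, h])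
  have pd : p ≠ d := fun h => hd.cd (by rw [← zd, ← h, zp, h])
  set q := u • p with hq
  have zq : z₀ • q = q := smul_fix_of_commute hzu zp
  have hpq : Dist c d p q := by
    refine ⟨hd.cd, pc.symm, fun h => ?_, pd.symm, fun h => ?_, fun h => moved p pa pb h.symm⟩
    · exact pd (eq_of_smul_eq (g := u) (by rw [ud, ← hq, ← h]))
    · exact pc (eq_of_smul_eq (g := u) (by rw [uc, ← hq, ← h]))
  obtain ⟨g3, g3c, g3d, g3p, g3q⟩ := H.trans hpq he'
  obtain ⟨g4, hg4, hag⟩ := H.exists_transfer hpq hu hu (g := g3)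
    (by rw [uc, g3d, g3c, ud]) (by rw [ud, g3c, g3d, uc])
    (by rw [← hq, g3q, g3p, smul_smul_self hu]) (by rw [hq, smul_smul_self hu, ← hq, g3p, g3q])
  have g4c : g4 • c = c := (hag c (by rw [uc, g3d, g3c, ud])).trans g3c
  have g4d : g4 • d = d := (hag d (by rw [ud, g3c, g3d, uc])).trans g3d
  have g4p : g4 • p = e := (hag p (by rw [← hq, g3q, g3p, smul_smul_self hu])).trans g3p
  have fixu : ∀ r, u • r = r → g4 • r = a ∨ g4 • r = b := fun r hr => by
    by_contra h
    push Not at h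
    exact moved _ h.1 h.2 (smul_fix_of_conj hg4 hr)
  set v := z₀ * u with hv
  have va : v • a = b := by rw [hv, mul_smul, ua, za]
  have vb : v • b = a := by rw [hv, mul_smul, ub, zb]
  have vc : v • c = c := by rw [hv, mul_smul, uc, zd]
  have vd : v • d = d := by rw [hv, mul_smul, ud, zc]
  have vq : v • q = p := by rw [hv, mul_smul, hq, smul_smul_self hu, zp]
  -- an element fixing the quadruple which maps a fixed point of `z₀` to `e`
  obtain ⟨w, r, zr, wa, wb, wc, wd, wr⟩ : ∃ (w : G) (r : α), z₀ • r = r ∧ w • a = a ∧ w • b = b ∧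
      w • c = c ∧ w • d = d ∧ w • r = e := by
    rcases fixu a ua with h | h
    · refine ⟨g4, p, zp, h, ?_, g4c, g4d, g4p⟩
      rcases fixu b ub with h' | h'
      · exact absurd (eq_of_smul_eq (h.trans h'.symm)) hd.ab
      · exact h'
    · refine ⟨g4 * v, q, zq, ?_, by rw [mul_smul, vb, h], by rw [mul_smul, vc, g4c],
        by rw [mul_smul, vd, g4d], by rw [mul_smul, vq, g4p]⟩
      rcases fixu b ub with h' | h'
      · rw [mul_smul, va, h']
      · exact absurd (eq_of_smul_eq (h.trans h'.symm)) hd.ab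
  refine ⟨w * z₀ * w⁻¹, ?_, ?_, ?_, ?_, ?_, ?_⟩
  · calc w * z₀ * w⁻¹ * (w * z₀ * w⁻¹) = w * (z₀ * z₀) * w⁻¹ := by group
      _ = 1 := by rw [hz₀]; group
  all_goals rw [mul_smul, mul_smul]
  · rw [inv_smul_eq_iff.mpr wa.symm, za, wb]
  · rw [inv_smul_eq_iff.mpr wb.symm, zb, wa]
  · rw [inv_smul_eq_iff.mpr wc.symm, zc, wd]
  · rw [inv_smul_eq_iff.mpr wd.symm, zd, wc]
  · rw [inv_smul_eq_iff.mpr wr.symm, zr, wr]

/-- The four-point stabilisers fix every point. -/
theorem Q4_eq_bot_of_twoFix {a b c d : α} (hd : Dist a b c d) {h : G} (hh : h ∈ Q4 G a b c d) :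
    h = 1 := by
  obtain ⟨ha, hb, hc, hd'⟩ := mem_Q4.mp hh
  refine H.faithful h fun e => ?_
  by_cases ea : e = a
  · rw [ea, ha]
  by_cases eb : e = b
  · rw [eb, hb]
  by_cases ec : e = c
  · rw [ec, hc]
  by_cases ed : e = d
  · rw [ed, hd']
  obtain ⟨z, hz, za, zb, zc, zd, ze⟩ := H.exists_double_fixing T h5 hd ea eb ec ed
  have hd2 : Dist a c b d := ⟨hd.ac, hd.ab, hd.ad, hd.bc.symm, hd.cd, hd.bd⟩
  obtain ⟨g, -, ga, gc, gb, gd, ge⟩ := H.exists_double_fixing T h5 hd2 ea ec eb ed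
  have ok : ∀ p, (p = a ∨ p = b ∨ p = c ∨ p = d ∨ p = e) → Ok z g p := by
    rintro p (rfl | rfl | rfl | rfl | rfl) <;>
      refine ⟨?_, ?_, ?_⟩ <;> simp only [za, zb, zc, zd, ze, ga, gb, gc, gd, ge]
  obtain ⟨s, hs, hzs, hsag⟩ := H.exists_commuting hd hz (ok a (by tauto)) (ok b (by tauto))
    (ok c (by tauto)) (ok d (by tauto))
  have sa : s • a = c := (hsag a (ok a (by tauto))).trans ga
  have sb : s • b = d := (hsag b (ok b (by tauto))).trans gb
  have sc : s • c = a := (hsag c (ok c (by tauto))).trans gc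
  have sd : s • d = b := (hsag d (ok d (by tauto))).trans gd
  have se : s • e = e := (hsag e (ok e (by tauto))).trans ge
  have hzs1 : z * s * (z * s) = 1 := by
    rw [mul_assoc, ← mul_assoc s z, ← hzs.eq, mul_assoc z s s, hs, mul_one, hz]
  have norm : ∀ {w : G}, w * w = 1 → ∀ {p q : α}, w • p = q → ∀ {x : G}, x • q = q →
      (w * x * w) • p = p := fun {w} hw {p q} hpq {x} hx => by
    rw [mul_smul, mul_smul, hpq, hx, ← hpq, smul_smul_self hw]
  -- an element commuting with one of the involutions preserves its pair of fixed points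
  have key : ∀ {w : G}, w * w = 1 → w • a ≠ a → w • e = e → ∀ x ∈ Q4 G a b c d, Commute w x →
      x ∈ MulAction.stabilizer G e := by
    intro w hw hwa hwe x hx hcx
    rw [MulAction.mem_stabilizer_iff]
    by_contra hne
    have h1 : w • x • e = x • e := smul_fix_of_commute hcx hwe
    have h2 : w • x • x • e = x • x • e := smul_fix_of_commute hcx h1
    have hne2 : x • x • e ≠ e := fun h' => hne (fix_of_swap (H.odd hd x hx) h')
    exact T w hw (ne_one_of_moves hwa) (Ne.symm hne) hne2.symm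
      (fun h' => hne (eq_of_smul_eq h'.symm)) hwe h1 h2
  refine MulAction.mem_stabilizer_iff.mp ((le_of_four_group (H := Q4 G a b c d) (fun x hx => H.odd hd x hx)
    hz hs hzs ?_ ?_ ?_ ?_ ?_) hh)
  · intro x hx
    obtain ⟨xa, xb, xc, xd⟩ := mem_Q4.mp hx
    exact mem_Q4.mpr ⟨norm hz za xb, norm hz zb xa, norm hz zc xd, norm hz zd xc⟩
  · intro x hx
    obtain ⟨xa, xb, xc, xd⟩ := mem_Q4.mp hx
    exact mem_Q4.mpr ⟨norm hs sa xc, norm hs sb xd, norm hs sc xa, norm hs sd xb⟩
  · exact key hz (by rw [za]; exact hd.ab.symm) ze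
  · exact key hs (by rw [sa]; exact hd.ac.symm) se
  · exact key hzs1 (by rw [mul_smul, sa, zc]; exact hd.ad.symm) (by rw [mul_smul, se, ze])

end Hyp

end CfsgLib.FourTransOdd
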