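import Cfsg.Agent.FourTransOdd.Basic

/-!
Four-transitive actions in which the four-point stabilisers have odd order: involutions with
prescribed action on four points.
-/

set_option autoImplicit false

namespace CfsgLib.FourTransOdd

/-- Four distinct points. -/
structure Dist {α : Type*} (a b c d : α) : Prop where
  ab : a ≠ b
  ac : a ≠ c
  ad : a ≠ d
  bc : b ≠ c
  bd : b ≠ d
  cd : c ≠ d

/-- The elements fixing four points. -/
def Q4 (G : Type*) {α : Type*} [Group G] [MulAction G α] (a b c d : α) : Subgroup G :=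
  MulAction.stabilizer G a ⊓ MulAction.stabilizer G b ⊓ MulAction.stabilizer G c ⊓ MulAction.stabilizer G d

theorem mem_Q4 {G α : Type*} [Group G] [MulAction G α] {a b c d : α} {g : G} :
    g ∈ Q4 G a b c d ↔ g • a = a ∧ g • b = b ∧ g • c = c ∧ g • d = d := by
  simp [Q4, MulAction.mem_stabilizer_iff, and_assoc]

/-- A faithful four-transitive action in which an element fixing four points has odd order. -/
structure Hyp (G α : Type*) [Group G] [MulAction G α] : Prop where
  trans : ∀ {a b c d a' b' c' d' : α}, Dist a b c d → Dist a' b' c' d' →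
    ∃ g : G, g • a = a' ∧ g • b = b' ∧ g • c = c' ∧ g • d = d'
  odd : ∀ {a b c d : α}, Dist a b c d → ∀ g ∈ Q4 G a b c d, Odd (orderOf g)
  faithful : ∀ g : G, (∀ x : α, g • x = x) → g = 1

variable {G α : Type*} [Group G] [MulAction G α]

theorem smul_smul_self {t : G} (ht : t * t = 1) (p : α) : t • t • p = p := by
  rw [← mul_smul, ht, one_smul]

/-- A commuting element preserves the fixed points. -/
theorem smul_fix_of_commute {t g : G} (hc : Commute t g) {p : α} (hp : t • p = p) :
    t • g • p = g • p := by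
  rw [← mul_smul, hc.eq, mul_smul, hp]

theorem eq_of_smul_eq {g : G} {p q : α} (h : g • p = g • q) : p = q := MulAction.injective g h

/-- An element of odd order mapping `p` to `q` and `q` to `p` fixes `p`. -/
theorem fix_of_swap {g : G} (hg : Odd (orderOf g)) {p : α} (h : g • g • p = p) : g • p = p := by
  obtain ⟨k, hk⟩ := hg
  have hmem : g ^ 2 ∈ MulAction.stabilizer G p := by
    rw [MulAction.mem_stabilizer_iff, pow_two, mul_smul, h]
  have h2 : g = (g ^ 2) ^ (k + 1) := by
    rw [← pow_mul, show 2 * (k + 1) = orderOf g + 1 by omega, pow_succ, pow_orderOf_eq_one, one_mul]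
  exact h2 ▸ pow_mem hmem _

/-- The points at which `g` behaves like an involution commuting with `t`. -/
def Ok (t g : G) (p : α) : Prop :=
  t • g • t • p = g • p ∧ t • g • t • g • p = g • g • p ∧ g • g • p = p

namespace Hyp

variable (H : Hyp G α)

include H

/-- No nontrivial involution fixes four points. -/
theorem not_fix_four {t : G} (ht : t * t = 1) (ht1 : t ≠ 1) {a b c d : α} (hd : Dist a b c d)
    (ha : t • a = a) (hb : t • b = b) (hc : t • c = c) (hd' : t • d = d) : False := by
  have := H.odd hd t (mem_Q4.mpr ⟨ha, hb, hc, hd'⟩)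
  rw [orderOf_eq_prime (p := 2) (by rw [pow_two, ht]) ht1] at this
  exact absurd this (by decide)

/-- An involution which agrees with a given element whose square fixes four points. -/
theorem exists_invol_agree {a b c d : α} (hd : Dist a b c d) {g : G} (ha : g • g • a = a)
    (hb : g • g • b = b) (hc : g • g • c = c) (hd' : g • g • d = d) :
    ∃ t ∈ Subgroup.zpowers g, t * t = 1 ∧ ∀ p : α, g • g • p = p → t • p = g • p := by
  have hodd := H.odd hd (g * g) (mem_Q4.mpr ⟨by rwa [mul_smul], by rwa [mul_smul],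
    by rwa [mul_smul], by rwa [mul_smul]⟩)
  obtain ⟨k, hk⟩ := hodd
  refine ⟨g ^ (2 * k + 1), pow_mem (Subgroup.mem_zpowers g) _, ?_, fun p hp => ?_⟩
  · rw [← pow_add, show 2 * k + 1 + (2 * k + 1) = 2 * (2 * k + 1) by ring, pow_mul, pow_two, ← hk,
      pow_orderOf_eq_one]
  · rw [pow_succ', mul_smul, pow_mul, pow_two]
    have hm : g * g ∈ MulAction.stabilizer G p := by rwa [MulAction.mem_stabilizer_iff, mul_smul]
    have := pow_mem hm k
    rw [MulAction.mem_stabilizer_iff] at this
    rw [this]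

/-- If `g t g⁻¹` agrees with `t'` on four points then some element agreeing with `g` on every point
where they agree carries `t` to `t'`. -/
theorem exists_transfer {a b c d : α} (hd : Dist a b c d) {t t' g : G} (ht : t * t = 1)
    (ht' : t' * t' = 1) (ha : t' • g • t • a = g • a) (hb : t' • g • t • b = g • b)
    (hc : t' • g • t • c = g • c) (hd' : t' • g • t • d = g • d) :
    ∃ g₀ : G, g₀ * t * g₀⁻¹ = t' ∧ ∀ p : α, t' • g • t • p = g • p → g₀ • p = g • p := by
  have hdist : Dist (g • a) (g • b) (g • c) (g • d) :=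
    ⟨fun h => hd.ab (eq_of_smul_eq h), fun h => hd.ac (eq_of_smul_eq h),
      fun h => hd.ad (eq_of_smul_eq h), fun h => hd.bc (eq_of_smul_eq h),
      fun h => hd.bd (eq_of_smul_eq h), fun h => hd.cd (eq_of_smul_eq h)⟩
  set t₁ := g * t * g⁻¹ with ht₁
  have ht₁2 : t₁ * t₁ = 1 := by
    rw [ht₁]
    calc g * t * g⁻¹ * (g * t * g⁻¹) = g * (t * t) * g⁻¹ := by group
      _ = 1 := by rw [ht]; group
  have hfix : ∀ p : α, t' • g • t • p = g • p → (t' * t₁) • (g • p) = g • p := fun p hp => by
    rw [ht₁, mul_smul, mul_smul, mul_smul, inv_smul_smul, hp]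
  have hodd : Odd (orderOf (t' * t₁)) :=
    H.odd hdist _ (mem_Q4.mpr ⟨hfix a ha, hfix b hb, hfix c hc, hfix d hd'⟩)
  obtain ⟨h, hh, hconj⟩ := exists_conj_of_odd ht₁2 ht' hodd
  refine ⟨h * g, ?_, fun p hp => ?_⟩
  · rw [← hconj, ht₁]; group
  · rw [mul_smul]
    exact (Subgroup.zpowers_le.mpr (show t' * t₁ ∈ MulAction.stabilizer G (g • p) from hfix p hp) hh : _)

/-- An involution fixing two given points and exchanging two others. -/
theorem exists_swap {a b c d : α} (hd : Dist a b c d) :
    ∃ u : G, u * u = 1 ∧ u • a = a ∧ u • b = b ∧ u • c = d ∧ u • d = c := by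
  obtain ⟨g, ga, gb, gc, gd⟩ := H.trans hd
    (⟨hd.ab, hd.ad, hd.ac, hd.bd, hd.bc, hd.cd.symm⟩ : Dist a b d c)
  obtain ⟨t, -, ht, hag⟩ := H.exists_invol_agree hd (g := g) (by rw [ga, ga]) (by rw [gb, gb])
    (by rw [gc, gd]) (by rw [gd, gc])
  exact ⟨t, ht, (hag a (by rw [ga, ga])).trans ga, (hag b (by rw [gb, gb])).trans gb,
    (hag c (by rw [gc, gd])).trans gc, (hag d (by rw [gd, gc])).trans gd⟩

/-- An involution exchanging two pairs of points. -/
theorem exists_double {a b c d : α} (hd : Dist a b c d) :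
    ∃ z : G, z * z = 1 ∧ z • a = b ∧ z • b = a ∧ z • c = d ∧ z • d = c := by
  obtain ⟨g, ga, gb, gc, gd⟩ := H.trans hd
    (⟨hd.ab.symm, hd.bd, hd.bc, hd.ad, hd.ac, hd.cd.symm⟩ : Dist b a d c)
  obtain ⟨t, -, ht, hag⟩ := H.exists_invol_agree hd (g := g) (by rw [ga, gb]) (by rw [gb, ga])
    (by rw [gc, gd]) (by rw [gd, gc])
  exact ⟨t, ht, (hag a (by rw [ga, gb])).trans ga, (hag b (by rw [gb, ga])).trans gb,
    (hag c (by rw [gc, gd])).trans gc, (hag d (by rw [gd, gc])).trans gd⟩

/-- An involution agreeing with `g` on four points and commuting with a given involution `t`. -/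
theorem exists_commuting {a b c d : α} (hd : Dist a b c d) {t g : G} (ht : t * t = 1)
    (ha : Ok t g a) (hb : Ok t g b) (hc : Ok t g c) (hd' : Ok t g d) :
    ∃ w : G, w * w = 1 ∧ Commute t w ∧ ∀ p : α, Ok t g p → w • p = g • p := by
  obtain ⟨g₀, hconj, hag⟩ := H.exists_transfer hd ht ht ha.1 hb.1 hc.1 hd'.1
  have hcomm : Commute t g₀ := by
    have e : g₀ * t = t * g₀ := by
      conv_rhs => rw [← hconj]
      group
    exact e.symm
  have sq : ∀ {p : α}, Ok t g p → g₀ • g₀ • p = p := fun {p} h => by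
    rw [hag p h.1, hag _ h.2.1, h.2.2]
  obtain ⟨w, hw, hw2, hwag⟩ := H.exists_invol_agree hd (sq ha) (sq hb) (sq hc) (sq hd')
  obtain ⟨n, rfl⟩ := Subgroup.mem_zpowers_iff.mp hw
  exact ⟨_, hw2, hcomm.zpow_right n, fun p h => (hwag p (sq h)).trans (hag p h.1)⟩

end Hyp

end CfsgLib.FourTransOdd
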