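import Cfsg.Agent.FourTransOdd.CaseThree
import Cfsg.Agent.SharplyTransitive.Large

/-!
In degree at least eight the four-point stabilisers are trivial and the degree is eleven.
-/

set_option autoImplicit false

namespace CfsgLib.FourTransOdd

open CfsgLib.SharplyTransitive

variable {G α : Type*} [Group G] [MulAction G α]

theorem Hyp.sharp (H : Hyp G α) (h : ∀ {a b c d : α}, Dist a b c d → ∀ g ∈ Q4 G a b c d, g = 1) :
    Sharp 4 G α := by
  have dist : ∀ x : Fin 4 ↪ α, Dist (x 0) (x 1) (x 2) (x 3) := fun x => by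
    constructor <;> intro e <;> exact absurd (x.injective e) (by decide)
  refine ⟨fun x y => ?_, fun g x hg => h (dist x) g (mem_Q4.mpr ⟨hg 0, hg 1, hg 2, hg 3⟩)⟩
  obtain ⟨g, h0, h1, h2, h3⟩ := H.trans (dist x) (dist y)
  exact ⟨g, fun i => by fin_cases i <;> assumption⟩

/-- The parity of the degree from the fixed points of an involution. -/
theorem card_mod_two [Finite α] {u : G} (hu : u * u = 1) (s : Finset α)
    (hs : ∀ y : α, y ∈ s ↔ u • y = y) : Nat.card α % 2 = s.card % 2 := by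
  classical
  have := Fintype.ofFinite α
  have hp : (MulAction.toPermHom G α u) ^ 2 ^ 1 = 1 := by
    rw [pow_one, ← map_pow, pow_two, hu, map_one]
  have h := Equiv.Perm.card_compl_support_modEq (p := 2) hp
  have e : (MulAction.toPermHom G α u).supportᶜ = s := by
    ext y
    simp [hs y]
  rw [e, ← Nat.card_eq_fintype_card] at h
  exact h.symm

namespace Hyp

variable [Finite α] (H : Hyp G α)

include H

/-- Without involutions fixing three points the degree is less than seven. -/
theorem not_twoFix (h7 : 7 ≤ Nat.card α) : ¬ TwoFix G α := by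
  classical
  intro T
  have := Fintype.ofFinite α
  obtain ⟨x⟩ := Function.Embedding.nonempty_of_card_le (α := Fin 4) (β := α)
    (by rw [Fintype.card_fin, ← Nat.card_eq_fintype_card]; omega)
  have hd : Dist (x 0) (x 1) (x 2) (x 3) := by
    constructor <;> intro e <;> exact absurd (x.injective e) (by decide)
  obtain ⟨u, hu, ua, ub, uc, ud⟩ := H.exists_swap hd
  have hu1 : u ≠ 1 := ne_one_of_moves (p := x 2) (by rw [uc]; exact hd.cd.symm)
  have hpar := card_mod_two hu {x 0, x 1} fun y => by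
    constructor
    · intro hy
      simp only [Finset.mem_insert, Finset.mem_singleton] at hy
      rcases hy with rfl | rfl <;> assumption
    · intro hy
      simp only [Finset.mem_insert, Finset.mem_singleton]
      by_contra h
      push Not at h
      exact T u hu hu1 hd.ab h.1.symm h.2.symm ua ub hy
  rw [Finset.card_pair hd.ab] at hpar
  have := degree_four (H.sharp fun hd g hg => H.Q4_eq_bot_of_twoFix T (by omega) hd hg)
    (by rw [← Nat.card_eq_fintype_card]; omega)
  rw [← Nat.card_eq_fintype_card] at this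
  omega

variable (h8 : 8 ≤ Nat.card α)

include h8

theorem threeFix : ThreeFix G α := H.threeFix_of_not_twoFix h8 (H.not_twoFix (by omega))

/-- The third fixed point is fixed by the four-point stabiliser. -/
theorem Q4_fix {a b c d : α} (hd : Dist a b c d) {u : G} (hu : IsSwap u a b c d) {x : α}
    (xa : x ≠ a) (xb : x ≠ b) (ux : u • x = x) {h : G} (hh : h ∈ Q4 G a b c d) : h • x = x := by
  classical
  by_contra hx
  obtain ⟨hu2, ua, ub, uc, ud⟩ := id hu
  have xc : x ≠ c := fun h => hd.cd (by rw [← uc, ← h, ux, h])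
  have xd : x ≠ d := fun h => hd.cd (by rw [← ud, ← h, ux, h])
  have trans5 : ∀ {a' b' c' d' : α}, Dist a' b' c' d' → a' ≠ x → b' ≠ x → c' ≠ x → d' ≠ x →
      ∃ g : G, g • a' = a ∧ g • b' = b ∧ g • c' = c ∧ g • d' = d ∧ g • x = x := by
    intro a' b' c' d' hd' na nb nc nd
    obtain ⟨g, ga, gb, gc, gd⟩ := H.trans hd' hd
    obtain ⟨m, hm, hmx⟩ := H.exists_map_fixed h8 (H.threeFix h8) hd hu xa xb ux hh hx (y := g • x)
      (fun e => na (eq_of_smul_eq (g := g) (ga.trans e.symm)))
      (fun e => nb (eq_of_smul_eq (g := g) (gb.trans e.symm)))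
      (fun e => nc (eq_of_smul_eq (g := g) (gc.trans e.symm)))
      (fun e => nd (eq_of_smul_eq (g := g) (gd.trans e.symm)))
    obtain ⟨ma, mb, mc, md⟩ := mem_Q4.mp hm
    refine ⟨m⁻¹ * g, ?_, ?_, ?_, ?_, by rw [mul_smul, inv_smul_eq_iff, hmx]⟩
    · rw [mul_smul, ga, inv_smul_eq_iff, ma]
    · rw [mul_smul, gb, inv_smul_eq_iff, mb]
    · rw [mul_smul, gc, inv_smul_eq_iff, mc]
    · rw [mul_smul, gd, inv_smul_eq_iff, md]
  set Gx := MulAction.stabilizer G x
  set αx := SubMulAction.ofStabilizer G x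
  have nx : ∀ s : αx, (s : α) ≠ x := fun s => (SubMulAction.mem_ofStabilizer_iff G x).mp s.2
  have dist : ∀ {p q r s : αx}, Dist p q r s → Dist (p : α) q r s := fun {p q r s} h =>
    ⟨fun e => h.ab (Subtype.ext e), fun e => h.ac (Subtype.ext e), fun e => h.ad (Subtype.ext e),
      fun e => h.bc (Subtype.ext e), fun e => h.bd (Subtype.ext e), fun e => h.cd (Subtype.ext e)⟩
  have Hx : Hyp Gx αx := by
    refine ⟨fun {p q r s p' q' r' s'} h1 h2 => ?_, fun {p q r s} h1 g hg => ?_, fun g hg => ?_⟩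
    · obtain ⟨g1, e1, e2, e3, e4, e5⟩ := trans5 (dist h1) (nx p) (nx q) (nx r) (nx s)
      obtain ⟨g2, f1, f2, f3, f4, f5⟩ := trans5 (dist h2) (nx p') (nx q') (nx r') (nx s')
      refine ⟨⟨g2⁻¹ * g1, MulAction.mem_stabilizer_iff.mpr (by rw [mul_smul, e5, inv_smul_eq_iff, f5])⟩,
        Subtype.ext ?_, Subtype.ext ?_, Subtype.ext ?_, Subtype.ext ?_⟩
      · show (g2⁻¹ * g1) • (p : α) = p'
        rw [mul_smul, e1, inv_smul_eq_iff, f1]
      · show (g2⁻¹ * g1) • (q : α) = q'
        rw [mul_smul, e2, inv_smul_eq_iff, f2]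
      · show (g2⁻¹ * g1) • (r : α) = r'
        rw [mul_smul, e3, inv_smul_eq_iff, f3]
      · show (g2⁻¹ * g1) • (s : α) = s'
        rw [mul_smul, e4, inv_smul_eq_iff, f4]
    · obtain ⟨e1, e2, e3, e4⟩ := mem_Q4.mp hg
      rw [← Subgroup.orderOf_coe]
      exact H.odd (dist h1) (g : G) (mem_Q4.mpr ⟨congrArg Subtype.val e1, congrArg Subtype.val e2,
        congrArg Subtype.val e3, congrArg Subtype.val e4⟩)
    · refine Subtype.ext (H.faithful (g : G) fun y => ?_)
      by_cases hy : y = x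
      · rw [hy]; exact g.2
      · exact congrArg Subtype.val (hg ⟨y, (SubMulAction.mem_ofStabilizer_iff G x).mpr hy⟩)
  have := Fintype.ofFinite α
  refine Hx.not_twoFix ?_ fun t ht ht1 p q r pq pr qr tp tq tr => ?_
  · have hc := card_ofStabilizer (G := G) x
    rw [← Nat.card_eq_fintype_card] at hc
    change 7 ≤ Nat.card (SubMulAction.ofStabilizer G x)
    change Nat.card (SubMulAction.ofStabilizer G x) + 1 = _ at hc
    omega
  · exact H.not_fix_four (t := (t : G)) (congrArg Subtype.val ht) (fun e => ht1 (Subtype.ext e))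
      (⟨fun e => pq (Subtype.ext e), fun e => pr (Subtype.ext e), nx p, fun e => qr (Subtype.ext e),
        nx q, nx r⟩ : Dist (p : α) q r x)
      (congrArg Subtype.val tp) (congrArg Subtype.val tq) (congrArg Subtype.val tr) t.2

/-- A four-point stabiliser inside another one is equal to it. -/
theorem Q4_eq_of_le [Finite G] {a b c d a' b' c' d' : α} (hd : Dist a b c d)
    (hd' : Dist a' b' c' d') (hle : Q4 G a b c d ≤ Q4 G a' b' c' d') :
    Q4 G a b c d = Q4 G a' b' c' d' := by
  refine Subgroup.eq_of_le_of_card_ge hle ?_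
  obtain ⟨g, ga, gb, gc, gd⟩ := H.trans hd' hd
  refine Nat.card_le_card_of_injective (fun m => ⟨g * (m : G) * g⁻¹, ?_⟩) fun m m' e => ?_
  · obtain ⟨ma, mb, mc, md⟩ := mem_Q4.mp m.2
    exact mem_Q4.mpr ⟨ga ▸ smul_fix_of_conj rfl ma, gb ▸ smul_fix_of_conj rfl mb,
      gc ▸ smul_fix_of_conj rfl mc, gd ▸ smul_fix_of_conj rfl md⟩
  · exact Subtype.ext (by simpa using congrArg Subtype.val e)

/-- The four-point stabilisers are trivial. -/
theorem Q4_eq_bot [Finite G] {a b c d : α} (hd : Dist a b c d) {h : G} (hh : h ∈ Q4 G a b c d) :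
    h = 1 := by
  classical
  obtain ⟨u, hu0⟩ := H.exists_swap hd
  have hu : IsSwap u a b c d := hu0
  obtain ⟨x, xa, xb, ux⟩ := H.threeFix h8 hd hu
  obtain ⟨z, p, hz, za, zb, zc, zd, hzu, zx, zp, pa, pb, pc, pd, px, up⟩ :=
    H.exists_config h8 hd hu xa xb ux
  have hu1 := hu.ne_one hd
  obtain ⟨hu2, ua, ub, uc, ud⟩ := id hu
  have xc : x ≠ c := fun h => hd.cd (by rw [← uc, ← h, ux, h])
  have xd : x ≠ d := fun h => hd.cd (by rw [← ud, ← h, ux, h])
  have fixu : ∀ {s : α}, u • s = s → s = a ∨ s = b ∨ s = x := fun {s} hs =>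
    H.fix_cases hu2 hu1 hd.ab xa.symm xb.symm ua ub ux hs
  have hx : ∀ m ∈ Q4 G a b c d, m • x = x := fun m hm => H.Q4_fix h8 hd hu xa xb ux hm
  -- for every point `s` moved by `u` the stabiliser of `a b x s` fixes `u s`
  have eqQ : ∀ {s : α}, u • s ≠ s → Dist a b s (u • s) ∧ Dist a b x s ∧
      Q4 G a b s (u • s) = Q4 G a b x s := by
    intro s hs
    have sa : s ≠ a := fun e => hs (by rw [e, ua])
    have sb : s ≠ b := fun e => hs (by rw [e, ub])
    have sx : s ≠ x := fun e => hs (by rw [e, ux])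
    have hd1 : Dist a b s (u • s) := by
      refine ⟨hd.ab, sa.symm, fun h => sa ?_, sb.symm, fun h => sb ?_, hs.symm⟩
      · exact eq_of_smul_eq (g := u) (by rw [← h, ua])
      · exact eq_of_smul_eq (g := u) (by rw [← h, ub])
    have hd2 : Dist a b x s := ⟨hd.ab, xa.symm, sa.symm, xb.symm, sb.symm, sx.symm⟩
    refine ⟨hd1, hd2, H.Q4_eq_of_le h8 hd1 hd2 fun m hm => ?_⟩
    obtain ⟨ma, mb, ms, -⟩ := mem_Q4.mp hm
    exact mem_Q4.mpr ⟨ma, mb, H.Q4_fix h8 hd1 ⟨hu2, ua, ub, rfl, smul_smul_self hu2 s⟩ xa xb ux hm, ms⟩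
  have uc' : u • c ≠ c := by rw [uc]; exact hd.cd.symm
  have hQc : Q4 G a b c d = Q4 G a b x c := by rw [← (eqQ uc').2.2, uc]
  refine H.faithful h fun w => ?_
  obtain ⟨ha, hb, hc, hd'⟩ := mem_Q4.mp hh
  by_cases hall : ∃ y, y ≠ a ∧ y ≠ b ∧ y ≠ c ∧ y ≠ d ∧ y ≠ x ∧ ∀ m ∈ Q4 G a b c d, m • y = y
  · -- a second cycle of `u` is fixed, hence all are
    obtain ⟨y, ya, yb, yc, yd, yx, hy⟩ := hall
    have uy : u • y ≠ y := fun e => by
      rcases fixu e with e | e | e
      · exact ya e
      · exact yb e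
      · exact yx e
    by_cases wu : u • w = w
    · rcases fixu wu with e | e | e <;> rw [e]
      · exact ha
      · exact hb
      · exact hx h hh
    by_cases wc : w = c
    · rw [wc, hc]
    by_cases wd : w = d
    · rw [wd, hd']
    have cyc : ∀ {e : α}, e ≠ c → e ≠ d → u • e ≠ e → Dist c d e (u • e) := fun {e} ec ed em => by
      refine ⟨hd.cd, ec.symm, fun h => ed ?_, ed.symm, fun h => ec ?_, em.symm⟩
      · exact eq_of_smul_eq (g := u) (by rw [ud, ← h])
      · exact eq_of_smul_eq (g := u) (by rw [uc, ← h])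
    have hcy := cyc yc yd uy
    obtain ⟨g, gc, gd, gy, guy⟩ := H.trans hcy (cyc wc wd wu)
    obtain ⟨g₀, hg₀, hag⟩ := H.exists_transfer hcy hu2 hu2 (g := g) (by rw [uc, gd, gc, ud])
      (by rw [ud, gc, gd, uc]) (by rw [guy, gy, smul_smul_self hu2])
      (by rw [smul_smul_self hu2, gy, guy])
    have g0c : g₀ • c = c := (hag c (by rw [uc, gd, gc, ud])).trans gc
    have g0y : g₀ • y = w := (hag y (by rw [guy, gy, smul_smul_self hu2])).trans gy
    have imgs : ∀ {s : α}, u • s = s → h • g₀ • s = g₀ • s := fun {s} hs => by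
      rcases fixu (smul_fix_of_conj hg₀ hs) with e | e | e <;> rw [e]
      · exact ha
      · exact hb
      · exact hx h hh
    have hconj : g₀⁻¹ * h * g₀ ∈ Q4 G a b c d := by
      rw [hQc]
      have back : ∀ {s : α}, h • g₀ • s = g₀ • s → (g₀⁻¹ * h * g₀) • s = s := fun {s} e => by
        rw [mul_smul, mul_smul, e, inv_smul_smul]
      exact mem_Q4.mpr ⟨back (imgs ua), back (imgs ub), back (imgs ux), back (by rw [g0c, hc])⟩
    have e := hy _ hconj
    rw [mul_smul, mul_smul, inv_smul_eq_iff, g0y] at e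
    exact e
  push Not at hall
  -- `u` is the only involution fixing `a`, `b` and `x`
  have uniq : ∀ {u' : G}, u' * u' = 1 → u' ≠ 1 → u' • a = a → u' • b = b → u' • x = x → u' = u := by
    intro u' hu' hu'1 u'a u'b u'x
    refine (inv_mul_eq_one.mp (H.faithful (u⁻¹ * u') fun s => ?_)).symm
    rw [mul_smul, inv_smul_eq_iff]
    by_cases hs : u • s = s
    · rw [hs]
      rcases fixu hs with e | e | e <;> rw [e] <;> assumption
    have hs' : u' • s ≠ s := fun e => by
      rcases H.fix_cases hu' hu'1 hd.ab xa.symm xb.symm u'a u'b u'x e with e | e | e <;>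
        exact hs (by rw [e]; assumption)
    by_contra hne
    obtain ⟨hd1, hd2, hQ⟩ := eqQ hs
    have hd1' : Dist a b s (u' • s) := by
      refine ⟨hd.ab, hd1.ac, fun h => hd1.ac ?_, hd1.bc, fun h => hd1.bc ?_, hs'.symm⟩
      · exact eq_of_smul_eq (g := u') (by rw [← h, u'a])
      · exact eq_of_smul_eq (g := u') (by rw [← h, u'b])
    have hle : Q4 G a b s (u' • s) ≤ Q4 G a b x s := fun m hm => by
      obtain ⟨ma, mb, ms, -⟩ := mem_Q4.mp hm
      exact mem_Q4.mpr ⟨ma, mb,
        H.Q4_fix h8 hd1' ⟨hu', u'a, u'b, rfl, smul_smul_self hu' s⟩ xa xb u'x hm, ms⟩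
    have hQ' := H.Q4_eq_of_le h8 hd1' hd2 hle
    obtain ⟨g, ga, gb, gx, gs⟩ := H.trans hd2 hd
    have six : ∀ r : α, (∀ m ∈ Q4 G a b x s, m • r = r) → ∀ m ∈ Q4 G a b c d, m • g • r = g • r := by
      intro r hr m hm
      obtain ⟨ma, mb, mc, md⟩ := mem_Q4.mp hm
      have e : (g⁻¹ * m * g) • r = r := by
        refine hr _ (mem_Q4.mpr ⟨?_, ?_, ?_, ?_⟩) <;> rw [mul_smul, mul_smul]
        · rw [inv_smul_eq_iff, ga, ma]
        · rw [inv_smul_eq_iff, gb, mb]
        · rw [inv_smul_eq_iff, gx, mc]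
        · rw [inv_smul_eq_iff, gs, md]
      rwa [mul_smul, mul_smul, inv_smul_eq_iff] at e
    -- `u s` and `u' s` go to two distinct fixed points outside the quadruple
    have key : ∀ r : α, r ≠ a → r ≠ b → r ≠ x → r ≠ s → (∀ m ∈ Q4 G a b x s, m • r = r) → g • r = x := by
      intro r ra rb rx rs hr
      by_contra hgr
      obtain ⟨m, hm, hm'⟩ := hall (g • r) (fun e => ra (eq_of_smul_eq (e.trans ga.symm)))
        (fun e => rb (eq_of_smul_eq (e.trans gb.symm))) (fun e => rx (eq_of_smul_eq (e.trans gx.symm)))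
        (fun e => rs (eq_of_smul_eq (e.trans gs.symm))) hgr
      exact hm' (six r hr m hm)
    have e1 := key (u • s) hd1.ad.symm hd1.bd.symm
      (fun e => hd2.cd (eq_of_smul_eq (g := u) (ux.trans e.symm))) hs
      (fun m hm => (mem_Q4.mp (hQ.symm ▸ hm)).2.2.2)
    have e2 := key (u' • s) hd1'.ad.symm hd1'.bd.symm
      (fun e => hd2.cd (eq_of_smul_eq (g := u') (u'x.trans e.symm))) hs'
      (fun m hm => (mem_Q4.mp (hQ'.symm ▸ hm)).2.2.2)
    exact hne (eq_of_smul_eq (e2.trans e1.symm))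
  -- so the stabiliser centralises `u`, `v` and `z`
  exfalso
  obtain ⟨m, hm, hmp⟩ := hall p pa pb pc pd px
  obtain ⟨ma, mb, mc, md⟩ := mem_Q4.mp hm
  have comm : ∀ {w : G}, w * w = 1 → w ≠ 1 → w • a = a → w • b = b → w • x = x → Commute w m := by
    intro w hw hw1 wa wb wx
    have e := uniq (double_sq (g := m) hw) (fun e => hw1 (conj_eq_one_iff.mp e))
      (by simpa [ma] using smul_fix_of_conj (g := m) rfl wa)
      (by simpa [mb] using smul_fix_of_conj (g := m) rfl wb)
      (by simpa [hx m hm] using smul_fix_of_conj (g := m) rfl wx)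
    rw [← uniq hw hw1 wa wb wx] at e
    show w * m = m * w
    conv_lhs => rw [← e]
    group
  have hcu : Commute u m := comm hu2 hu1 ua ub ux
  -- the same for the involution fixing `c`, `d` and `x`
  set v := z * u with hv
  have va : v • a = b := by rw [hv, mul_smul, ua, za]
  have vb : v • b = a := by rw [hv, mul_smul, ub, zb]
  have vc : v • c = c := by rw [hv, mul_smul, uc, zd]
  have vd : v • d = d := by rw [hv, mul_smul, ud, zc]
  have vx : v • x = x := by rw [hv, mul_smul, ux, zx]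
  have hv2 : v * v = 1 := by
    rw [hv, mul_assoc, ← mul_assoc u z, ← hzu.eq, mul_assoc z u u, hu2, mul_one, hz]
  have hv1 : v ≠ 1 := ne_one_of_moves (p := a) (by rw [va]; exact hd.ab.symm)
  have hcv : Commute v m := by
    obtain ⟨g, ga, gb, gc, gd⟩ := H.trans hd
      (⟨hd.cd, hd.ac.symm, hd.bc.symm, hd.ad.symm, hd.bd.symm, hd.ab⟩ : Dist c d a b)
    obtain ⟨g₀, hg₀, hag⟩ := H.exists_transfer hd hu2 hv2 (g := g) (by rw [ua, ga, vc])
      (by rw [ub, gb, vd]) (by rw [uc, gd, gc, vb]) (by rw [ud, gc, gd, va])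
    have g0a : g₀ • a = c := (hag a (by rw [ua, ga, vc])).trans ga
    have g0b : g₀ • b = d := (hag b (by rw [ub, gb, vd])).trans gb
    have g0x : g₀ • x = x := by
      rcases H.fix_cases hv2 hv1 hd.cd xc.symm xd.symm vc vd vx (smul_fix_of_conj hg₀ ux) with e | e | e
      · exact absurd (eq_of_smul_eq (e.trans g0a.symm)) xa
      · exact absurd (eq_of_smul_eq (e.trans g0b.symm)) xb
      · exact e
    have back : ∀ {s t : α}, g₀ • s = t → (m * v * m⁻¹) • t = t →
        (g₀⁻¹ * (m * v * m⁻¹) * g₀) • s = s := fun {s t} e1 e2 => by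
      rw [mul_smul, mul_smul, e1, e2, ← e1, inv_smul_smul]
    have hmv : (m * v * m⁻¹) * (m * v * m⁻¹) = 1 := double_sq hv2
    have hsq : g₀⁻¹ * (m * v * m⁻¹) * g₀ * (g₀⁻¹ * (m * v * m⁻¹) * g₀) = 1 := by
      calc _ = g₀⁻¹ * ((m * v * m⁻¹) * (m * v * m⁻¹)) * g₀ := by group
        _ = 1 := by rw [hmv]; group
    have e := uniq hsq
      (fun e => hv1 (by
        have : v = m⁻¹ * g₀ * (g₀⁻¹ * (m * v * m⁻¹) * g₀) * g₀⁻¹ * m := by group
        rw [this, e]; group))
      (back g0a (by simpa [mc] using smul_fix_of_conj (g := m) rfl vc))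
      (back g0b (by simpa [md] using smul_fix_of_conj (g := m) rfl vd))
      (back g0x (by simpa [hx m hm] using smul_fix_of_conj (g := m) rfl vx))
    have e' : m * v * m⁻¹ = v := (show m * v * m⁻¹ = g₀ * u * g₀⁻¹ by rw [← e]; group).trans hg₀
    show v * m = m * v
    conv_lhs => rw [← e']
    group
  have hcz : Commute z m := by
    have : z = v * u := by rw [hv, mul_assoc, hu2, mul_one]
    rw [this]
    exact hcv.mul_left hcu
  have hz1 : z ≠ 1 := ne_one_of_moves (p := a) (by rw [za]; exact hd.ab.symm)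
  refine hmp (fix_of_swap (H.odd hd m hm) ?_)
  have f1 : z • m • p = m • p := smul_fix_of_commute hcz zp
  have f2 : z • m • m • p = m • m • p := smul_fix_of_commute hcz f1
  have qx : u • p ≠ x := fun e => px (eq_of_smul_eq (e.trans ux.symm))
  have fz : ∀ {s : α}, z • s = s → s = x ∨ s = p ∨ s = u • p := fun {s} hs =>
    H.fix_cases hz hz1 px.symm qx.symm up.symm zx zp (smul_fix_of_commute hzu zp) hs
  have mx : ∀ {s : α}, m • s = x → s = x := fun {s} e => eq_of_smul_eq (e.trans (hx m hm).symm)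
  rcases fz f1 with e | e | e
  · exact absurd (mx e) px
  · rw [e, e]
  · rcases fz f2 with e' | e' | e'
    · exact absurd (mx (mx e')) px
    · exact e'
    · exact absurd (eq_of_smul_eq (e'.trans e.symm)) hmp

/-- The degree is eleven and the order is 7920. -/
theorem degree_eleven [Finite G] : Nat.card α = 11 ∧ Nat.card G = 7920 := by
  have := Fintype.ofFinite α
  have hs := H.sharp fun hd g hg => H.Q4_eq_bot h8 hd hg
  have h11 : Fintype.card α = 11 := by
    have := degree_four hs (by rw [← Nat.card_eq_fintype_card]; omega)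
    rw [← Nat.card_eq_fintype_card] at this ⊢
    omega
  refine ⟨by rw [Nat.card_eq_fintype_card, h11], ?_⟩
  rw [natCard_eq hs (by omega), h11]
  rfl

end Hyp

end CfsgLib.FourTransOdd
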